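import Mathlib
import Cfsg.Agent.Lib.Helper33.Breadth.Defs

set_option autoImplicit false

/-! # S3777 "BREADTH", package [SEPG]

A `G`-invariant additive character of `N` that kills `K` and is nonzero, from [CHIEFK] and
[SEP]. -/

namespace Cfsg.Agent.Lib.Helper1.Breadth

open Cfsg.Agent.Lib.Helper33.Breadth

universe u

theorem pkgSepG (hCK : PkgChiefK.{u}) (hSep : PkgSep.{u}) : PkgSepG.{u} := by
  intro G _ _ p hp hP N K hN hK hKN
  obtain ⟨R, hR, hKR, hRN, hcen, hpow⟩ := hCK p hP N K hN hK hKN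
  -- an element of `N` outside `R`
  obtain ⟨n0, hn0N, hn0R⟩ : ∃ n0 ∈ N, n0 ∉ R := by
    by_contra h
    push Not at h
    exact (not_le_of_gt hRN) h
  have hRn : (R.subgroupOf N).Normal := inferInstance
  -- the quotient `N / R` is commutative
  have hcomm : ∀ x y : ↥N ⧸ R.subgroupOf N, x * y = y * x := by
    intro x y
    induction x using QuotientGroup.induction_on with
    | H a =>
      induction y using QuotientGroup.induction_on with
      | H b =>
        rw [← QuotientGroup.mk_mul, ← QuotientGroup.mk_mul, QuotientGroup.eq,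
          Subgroup.mem_subgroupOf]
        have h := hcen (b : G)⁻¹ (N.inv_mem b.2) (a : G)⁻¹
        have e : (((a * b)⁻¹ * (b * a) : ↥N) : G) =
            (b : G)⁻¹ * (a : G)⁻¹ * ((b : G)⁻¹)⁻¹ * ((a : G)⁻¹)⁻¹ := by
          push_cast
          group
        rw [e]
        exact h
  let instC : CommGroup (↥N ⧸ R.subgroupOf N) :=
    { (inferInstance : Group (↥N ⧸ R.subgroupOf N)) with mul_comm := hcomm }
  have hexp : ∀ x : ↥N ⧸ R.subgroupOf N, x ^ p = 1 := by
    intro x
    induction x using QuotientGroup.induction_on with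
    | H a =>
      have h1 : ((a ^ p : ↥N) : ↥N ⧸ R.subgroupOf N) = 1 := by
        rw [QuotientGroup.eq_one_iff, Subgroup.mem_subgroupOf]
        push_cast
        exact hpow (a : G) a.2
      exact h1
  have ha0 : ((⟨n0, hn0N⟩ : ↥N) : ↥N ⧸ R.subgroupOf N) ≠ 1 := by
    rw [Ne, QuotientGroup.eq_one_iff, Subgroup.mem_subgroupOf]
    exact hn0R
  obtain ⟨μ, hμadd, hμ0⟩ := @hSep (↥N ⧸ R.subgroupOf N) instC inferInstance p hp hexp _ ha0
  have hμ1 : μ 1 = 0 := by
    have h := hμadd 1 1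
    rw [mul_one] at h
    have h2 : μ 1 + 0 = μ 1 + μ 1 := by rw [add_zero]; exact h
    exact (add_left_cancel h2).symm
  classical
  refine ⟨fun g => if h : g ∈ N then μ ((⟨g, h⟩ : ↥N) : ↥N ⧸ R.subgroupOf N) else 0,
    ?_, ?_, ?_, ?_⟩
  · intro a ha b hb
    have hab : a * b ∈ N := N.mul_mem ha hb
    simp only [dif_pos ha, dif_pos hb, dif_pos hab]
    rw [← hμadd]
    rfl
  · intro a ha g
    have hc : g * a * g⁻¹ ∈ N := hN.conj_mem a ha g
    simp only [dif_pos ha, dif_pos hc]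
    congr 1
    symm
    rw [QuotientGroup.eq, Subgroup.mem_subgroupOf]
    have h := hcen a⁻¹ (N.inv_mem ha) g
    have e : (((⟨a, ha⟩ : ↥N)⁻¹ * (⟨g * a * g⁻¹, hc⟩ : ↥N) : ↥N) : G) =
        a⁻¹ * g * a⁻¹⁻¹ * g⁻¹ := by
      push_cast
      group
    rw [e]
    exact h
  · intro a ha
    have haN : a ∈ N := hKN.le ha
    simp only [dif_pos haN]
    have h1 : ((⟨a, haN⟩ : ↥N) : ↥N ⧸ R.subgroupOf N) = 1 := by
      rw [QuotientGroup.eq_one_iff, Subgroup.mem_subgroupOf]
      exact hKR ha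
    rw [h1]
    exact hμ1
  · refine ⟨n0, hn0N, ?_⟩
    simp only [dif_pos hn0N]
    exact hμ0

end Cfsg.Agent.Lib.Helper1.Breadth
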